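import Cfsg.Agent.H5.GL42
import Cfsg.Agent.H5.PStable
import Cfsg.Agent.H5.PBasic
import Cfsg.Agent.H8.PxQ
import Cfsg.Agent.L0.ElemAb

/-! The faithful action of `G / O_p(G)` on the Frattini quotient of `O_p(G)`. -/

set_option autoImplicit false

namespace Cfsg.Agent.H5

open Subgroup
open scoped commutatorElement

/-- The automorphism group of an elementary abelian group of order at most `p ^ n` embeds
in `GL(n, p)`. -/
theorem exists_mulAut_embedding_GL {V : Type*} [Group V] [Finite V] {p n : ℕ} [hp : Fact p.Prime]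
    [IsMulCommutative V] (h : ∀ x : V, x ^ p = 1) (hc : Nat.card V ≤ p ^ n) :
    ∃ f : MulAut V →* GL (Fin n) (ZMod p), Function.Injective f := by
  letI : CommGroup V := { mul_comm := fun a b => mul_comm' a b }
  have hV : IsPGroup p V := fun x => ⟨1, by simpa using h x⟩
  obtain ⟨k, hk⟩ := IsPGroup.iff_card.1 hV
  have hkn : k ≤ n := by
    rw [hk] at hc
    exact (Nat.pow_le_pow_iff_right hp.out.one_lt).1 hc
  let W := V × (Fin (n - k) → Multiplicative (ZMod p))
  have hW : ∀ x : W, x ^ p = 1 := by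
    rintro ⟨a, b⟩
    refine Prod.ext (h a) (funext fun i => ?_)
    change (b i) ^ p = 1
    rw [← ofAdd_toAdd (b i), ← ofAdd_nsmul, nsmul_eq_mul, ZMod.natCast_self, zero_mul]; rfl
  have hcW : Nat.card W = p ^ n := by
    have hz : Nat.card (Multiplicative (ZMod p)) = p := Nat.card_zmod p
    simp only [W, Nat.card_prod, Nat.card_pi, hz, hk,
      Finset.prod_const, Finset.card_univ, Fintype.card_fin]
    rw [← pow_add, Nat.add_sub_cancel' hkn]
  obtain ⟨e⟩ := L0.nonempty_mulAut_equiv_GL hW hcW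
  let φ : MulAut V →* MulAut W :=
    MonoidHom.mk' (fun a => MulEquiv.prodCongr a (MulEquiv.refl _)) (fun a b => by ext <;> rfl)
  refine ⟨e.toMonoidHom.comp φ, e.injective.comp fun a b hab => ?_⟩
  ext v
  exact congrArg Prod.fst (DFunLike.congr_fun hab (v, 1))

/-- If `C(P) ≤ P` for the normal `p`-subgroup `P = O_p(G)`, then `G / P` acts faithfully on an
elementary abelian image of `P`. -/
theorem exists_faithful_frattini_action {G : Type*} [Group G] [Finite G] {p : ℕ} [hp : Fact p.Prime]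
    (hc : centralizer (pCore p G : Set G) ≤ pCore p G) :
    ∃ (N : Subgroup (⊤ : Subgroup (pCore p G))) (_ : N.Normal),
      IsMulCommutative ((⊤ : Subgroup (pCore p G)) ⧸ N) ∧
      (∀ x : (⊤ : Subgroup (pCore p G)) ⧸ N, x ^ p = 1) ∧
      ∃ f : G ⧸ pCore p G →* MulAut ((⊤ : Subgroup (pCore p G)) ⧸ N), Function.Injective f := by
  set P := pCore p G with hPdef
  have hP : IsPGroup p P := L0.pCore_isPGroup
  set N := (frattini P).map P.subtype with hN
  haveI : N.Normal := inferInstance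
  set V := P.map (QuotientGroup.mk' N) with hV
  haveI : V.Normal := Normal.map inferInstance _ (QuotientGroup.mk'_surjective N)
  have hcomm : ∀ x ∈ V, ∀ y ∈ V, x * y = y * x := by
    rintro _ ⟨x, hx, rfl⟩ _ ⟨y, hy, rfl⟩
    rw [← commutatorElement_eq_one_iff_mul_comm, ← map_commutatorElement,
      QuotientGroup.mk'_apply, QuotientGroup.eq_one_iff]
    exact ⟨⁅(⟨x, hx⟩ : P), ⟨y, hy⟩⁆, commutator_le_frattini hP
      (commutator_mem_commutator (mem_top _) (mem_top _)), rfl⟩
  have hpow : ∀ x ∈ V, x ^ p = 1 := by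
    rintro _ ⟨x, hx, rfl⟩
    rw [← map_pow, QuotientGroup.mk'_apply, QuotientGroup.eq_one_iff]
    exact ⟨⟨x, hx⟩ ^ p, pow_mem_frattini hP _, rfl⟩
  let α : G →* MulAut V := (MulAut.conjNormal (H := V)).comp (QuotientGroup.mk' N)
  have hα : ∀ g, α g = 1 ↔ ∀ x ∈ P, ⁅x, g⁆ ∈ N := by
    intro g
    constructor
    · intro h x hx
      have h1 := congrArg Subtype.val
        (DFunLike.congr_fun h ⟨QuotientGroup.mk' N x⁻¹, mem_map_of_mem _ (inv_mem hx)⟩)
      change QuotientGroup.mk' N g * QuotientGroup.mk' N x⁻¹ * (QuotientGroup.mk' N g)⁻¹ =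
        QuotientGroup.mk' N x⁻¹ at h1
      rw [← QuotientGroup.eq_one_iff, ← QuotientGroup.mk'_apply, commutatorElement_def, map_mul,
        map_mul, map_mul, mul_assoc, mul_assoc, ← mul_assoc (QuotientGroup.mk' N g), map_inv _ g,
        h1, ← map_mul, mul_inv_cancel, map_one]
    · intro h
      ext ⟨_, x, hx, rfl⟩
      change QuotientGroup.mk' N g * QuotientGroup.mk' N x * (QuotientGroup.mk' N g)⁻¹ =
        QuotientGroup.mk' N x
      have h1 := (QuotientGroup.eq_one_iff _).2 (h x⁻¹ (inv_mem hx))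
      rw [← QuotientGroup.mk'_apply, map_commutatorElement, commutatorElement_eq_one_iff_commute,
        map_inv] at h1
      rw [← (Commute.inv_left_iff.1 h1).eq, mul_inv_cancel_right]
  have hker : α.ker = P := by
    apply le_antisymm
    · refine L0.le_pCore inferInstance ?_
      rw [IsPGroup.iff_card]
      by_contra hn
      have hn' : ∃ q : ℕ, q.Prime ∧ q ∣ Nat.card α.ker ∧ q ≠ p := by
        by_contra h
        push Not at h
        exact hn ⟨_, Nat.eq_prime_pow_of_unique_prime_dvd Nat.card_pos.ne' fun hq hd => h _ hq hd⟩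
      obtain ⟨q, hq, hqd, hqp⟩ := hn'
      haveI := Fact.mk hq
      obtain ⟨⟨g, hg⟩, hgo⟩ := exists_prime_orderOf_dvd_card' q hqd
      have hgo' : orderOf g = q := by rw [← hgo, Subgroup.orderOf_mk]
      have hcop : H8.CopAct (zpowers g) P := by
        refine ⟨le_normalizer_of_normal, ?_, Or.inl inferInstance⟩
        obtain ⟨k, hk⟩ := IsPGroup.iff_card.1 hP
        rw [Nat.card_zpowers, hgo', hk]
        exact ((Nat.coprime_primes hq hp.out).2 hqp).pow_right _
      have h1 := hcop.le_centralizer_of_commutator_le_frattini (by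
        rw [commutator_le]
        intro x hx y hy
        exact (hα y).1 (zpowers_le.2 hg hy) x hx)
      have h2 : g ∈ P := hc (le_centralizer_iff.1 h1 (mem_zpowers g))
      obtain ⟨k, hk⟩ := hP ⟨g, h2⟩
      have h3 : q ∣ p ^ k := by
        rw [← hgo']; exact orderOf_dvd_of_pow_eq_one (congrArg Subtype.val hk)
      exact hqp ((Nat.prime_dvd_prime_iff_eq hq hp.out).1 (hq.dvd_of_dvd_pow h3))
    · intro g hg
      exact (hα g).2 fun x hx => ⟨⁅(⟨x, hx⟩ : P), ⟨g, hg⟩⁆, commutator_le_frattini hP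
        (commutator_mem_commutator (mem_top _) (mem_top _)), rfl⟩
  let ψ : (⊤ : Subgroup P) →* G ⧸ N :=
    ((QuotientGroup.mk' N).comp P.subtype).comp (⊤ : Subgroup P).subtype
  have hψ : ψ.range = V := by
    ext y
    constructor
    · rintro ⟨x, rfl⟩; exact mem_map_of_mem _ x.1.2
    · rintro ⟨x, hx, rfl⟩; exact ⟨⟨⟨x, hx⟩, mem_top _⟩, rfl⟩
  let e : ((⊤ : Subgroup P) ⧸ ψ.ker) ≃* V :=
    (QuotientGroup.quotientKerEquivRange ψ).trans (MulEquiv.subgroupCongr hψ)
  refine ⟨ψ.ker, inferInstance, ⟨⟨fun a b => e.injective ?_⟩⟩, fun x => e.injective ?_, ?_⟩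
  · rw [map_mul, map_mul]; exact Subtype.ext (hcomm _ (e a).2 _ (e b).2)
  · rw [map_pow, map_one]; exact Subtype.ext (hpow _ (e x).2)
  · refine ⟨(MulAut.congr e.symm).toMonoidHom.comp (QuotientGroup.lift P α hker.ge),
      (MulAut.congr e.symm).injective.comp ?_⟩
    rw [injective_iff_map_eq_one]
    intro a ha
    obtain ⟨g, rfl⟩ := QuotientGroup.mk_surjective a
    exact (QuotientGroup.eq_one_iff _).2 (hker.le ha)

/-- If `C(O_p(G)) ≤ O_p(G)` and `O_p(G)` has sectional rank at most `n`, then `G / O_p(G)` embeds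
in `GL(n, p)`. -/
theorem exists_embedding_GL_of_sectional {G : Type*} [Group G] [Finite G] {p n : ℕ} [Fact p.Prime]
    (hc : centralizer (pCore p G : Set G) ≤ pCore p G) (h : SectionalPRankLE p n (pCore p G)) :
    ∃ f : G ⧸ pCore p G →* GL (Fin n) (ZMod p), Function.Injective f := by
  obtain ⟨N, hN, h1, h2, f, hf⟩ := exists_faithful_frattini_action hc
  have h3 := h ⊤ N ⊤ inferInstance (fun a _ => h2 a)
  rw [card_top] at h3
  obtain ⟨g, hg⟩ := exists_mulAut_embedding_GL h2 h3
  exact ⟨g.comp f, hg.comp hf⟩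

end Cfsg.Agent.H5
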