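import Mathlib

/-! Fixed points of a Frobenius complement on an abelian group (helper5). -/

set_option autoImplicit false

namespace Cfsg.Agent.H5

open Subgroup

theorem prod_smul_fixed {Γ V : Type*} [Group Γ] [CommGroup V] (τ : Γ →* MulAut V)
    (U : Subgroup Γ) [Fintype U] (v : V) {u : Γ} (hu : u ∈ U) :
    τ u (∏ x : U, τ x v) = ∏ x : U, τ x v := by
  rw [map_prod]
  refine Fintype.prod_equiv (Equiv.mulLeft (⟨u, hu⟩ : U)) _ _ (fun x => ?_)
  simp

/-- If a Frobenius group acts on an abelian group and neither the kernel nor the complement has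
nontrivial fixed points, the order of the kernel annihilates the group. -/
theorem pow_card_eq_one_of_frobenius {Γ V : Type*} [Group Γ] [Finite Γ] [CommGroup V]
    (τ : Γ →* MulAut V) {H K : Subgroup Γ}
    (h : ∀ g : Γ, g ∉ H → ∀ a ∈ H, g * a * g⁻¹ ∈ H → a = 1)
    (hK : ∀ g : Γ, g ∈ K ↔ g = 1 ∨ ∀ x ∈ H, ¬ IsConj g x) (hc : K.IsComplement' H)
    (hfK : ∀ v : V, (∀ k ∈ K, τ k v = v) → v = 1) (hfH : ∀ v : V, (∀ x ∈ H, τ x v = v) → v = 1)
    (v : V) : v ^ Nat.card K = 1 := by
  classical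
  haveI := Fintype.ofFinite Γ
  have h1 : ∀ w, ∏ x : H, τ x w = 1 := fun w => hfH _ fun x hx => prod_smul_fixed τ H w hx
  have h2 : ∏ x : K, τ x v = 1 := hfK _ fun x hx => prod_smul_fixed τ K v hx
  have h3 : ∏ x : Γ, τ x v = 1 := by
    apply hfH
    intro u _
    rw [map_prod]
    refine Fintype.prod_equiv (Equiv.mulLeft u) _ _ (fun x => ?_)
    simp
  have h4 : ∀ k : Γ, v * ∏ x ∈ Finset.univ.erase (1 : H), τ (k * x * k⁻¹) v = 1 := by
    intro k
    have := Finset.mul_prod_erase Finset.univ (fun x : H => τ (k * x * k⁻¹) v)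
      (Finset.mem_univ (1 : H))
    simp only [OneMemClass.coe_one, mul_one, mul_inv_cancel, map_one, MulAut.one_apply] at this
    rw [this]
    have h5 := congrArg (τ k) (h1 (τ k⁻¹ v))
    rw [map_prod, map_one] at h5
    simpa using h5
  have h5 : ∏ x ∈ Finset.univ.filter (fun x : Γ => x ∉ K), τ x v =
      ∏ k : K, ∏ x ∈ Finset.univ.erase (1 : H), τ (k * x * (k : Γ)⁻¹) v := by
    rw [← Finset.prod_product']
    symm
    refine Finset.prod_bij (fun y _ => (y.1 : Γ) * y.2 * (y.1 : Γ)⁻¹) ?_ ?_ ?_ (fun _ _ => rfl)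
    · rintro ⟨k, x⟩ hx
      simp only [Finset.mem_product, Finset.mem_univ, Finset.mem_erase, and_true, true_and,
        Finset.mem_filter] at hx ⊢
      rw [hK]
      rintro (e | e)
      · exact hx (Subtype.ext (by simpa using e))
      · exact e x x.2 (isConj_iff.mpr ⟨(k : Γ)⁻¹, by group⟩)
    · rintro ⟨k, x⟩ hx ⟨k', x'⟩ - e
      simp only [Finset.mem_product, Finset.mem_univ, Finset.mem_erase, and_true, true_and] at hx e
      have e1 : ((k' : Γ)⁻¹ * k) * x * ((k' : Γ)⁻¹ * k)⁻¹ = x' := by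
        rw [← mul_left_inj ((k' : Γ)⁻¹), ← mul_right_inj (k' : Γ), ← mul_assoc, ← mul_assoc,
          ← mul_assoc (k' : Γ) (x' : Γ), ← e]
        group
      have e2 : (k' : Γ)⁻¹ * k ∈ H := by
        by_contra hn
        exact hx (Subtype.ext (h _ hn x x.2 (e1 ▸ x'.2)))
      have e3 : (k' : Γ)⁻¹ * k = 1 :=
        disjoint_def.mp hc.disjoint (K.mul_mem (K.inv_mem k'.2) k.2) e2
      rw [e3] at e1
      exact Prod.ext (Subtype.ext (inv_mul_eq_one.mp e3).symm) (Subtype.ext (by simpa using e1))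
    · intro g hg
      simp only [Finset.mem_filter, Finset.mem_univ, true_and, hK, not_or, not_forall,
        not_not] at hg
      obtain ⟨hg1, x, hx, hgx⟩ := hg
      obtain ⟨y, rfl⟩ := isConj_iff.mp hgx.symm
      obtain ⟨⟨k, u⟩, rfl⟩ := hc.2 y
      refine ⟨(k, u * ⟨x, hx⟩ * u⁻¹), ?_, by simp [mul_assoc]⟩
      simp only [Finset.mem_product, Finset.mem_univ, Finset.mem_erase, and_true, true_and]
      intro e
      apply hg1
      have : x = 1 := by simpa using e
      simp [this]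
  rw [← Finset.prod_filter_mul_prod_filter_not Finset.univ (fun x : Γ => x ∈ K),
    Finset.prod_subtype (p := fun x => x ∈ K) (F := inferInstance) _ (by simp), h2, one_mul,
    h5] at h3
  have h6 : ∏ k : K, (v * ∏ x ∈ Finset.univ.erase (1 : H), τ (k * x * (k : Γ)⁻¹) v) = 1 :=
    Finset.prod_eq_one fun k _ => h4 k
  rwa [Finset.prod_mul_distrib, h3, mul_one, Finset.prod_const, Finset.card_univ,
    ← Nat.card_eq_fintype_card] at h6

end Cfsg.Agent.H5
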